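import Mathlib.GroupTheory.GroupAction.MultipleTransitivity
import Mathlib.GroupTheory.Perm.Cycle.Type

/-!
Tits: a sharply 4-transitive group has finite degree at most 11, at most 6 for even degree.

The involution `t` swapping `a, b` and fixing `c, d` has 2 or 3 fixed points; for each further moved
point `y` the element `(a, b, y₀, t y₀) ↦ (a, b, y, t y)` commutes with `t`, and is determined by
its effect on `c, d`.
-/

set_option autoImplicit false

namespace CfsgLib.SharplyFour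

variable {G : Type*} [Group G] {Ω : Type*} [MulAction G Ω]

/-- Four distinct points as an embedding. -/
def quad (a b c d : Ω) (hab : a ≠ b) (hac : a ≠ c) (had : a ≠ d) (hbc : b ≠ c) (hbd : b ≠ d)
    (hcd : c ≠ d) : Fin 4 ↪ Ω :=
  ⟨![a, b, c, d], by
    intro i j hij
    fin_cases i <;> fin_cases j <;> simp_all [eq_comm]⟩

theorem tits (h4 : MulAction.IsMultiplyPretransitive G Ω 4)
    (hsharp : ∀ x : Fin 4 ↪ Ω, MulAction.stabilizer G x = ⊥) (hne : Nonempty (Fin 4 ↪ Ω)) :
    Finite Ω ∧ Nat.card Ω ≤ 11 ∧ (Even (Nat.card Ω) → Nat.card Ω ≤ 6) := by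
  classical
  haveI := h4
  -- sharpness
  have eq_one : ∀ (g : G) (a b c d : Ω), a ≠ b → a ≠ c → a ≠ d → b ≠ c → b ≠ d → c ≠ d →
      g • a = a → g • b = b → g • c = c → g • d = d → g = 1 := by
    intro g a b c d h1 h2 h3 h4 h5 h6 ha hb hc hd
    have hg : g ∈ MulAction.stabilizer G (quad a b c d h1 h2 h3 h4 h5 h6) := by
      rw [MulAction.mem_stabilizer_iff]
      ext i
      fin_cases i <;> simpa [quad]
    rw [hsharp] at hg
    exact Subgroup.mem_bot.1 hg
  have exists_map : ∀ (a b c d a' b' c' d' : Ω), a ≠ b → a ≠ c → a ≠ d → b ≠ c → b ≠ d → c ≠ d →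
      a' ≠ b' → a' ≠ c' → a' ≠ d' → b' ≠ c' → b' ≠ d' → c' ≠ d' →
      ∃ g : G, g • a = a' ∧ g • b = b' ∧ g • c = c' ∧ g • d = d' := by
    intro a b c d a' b' c' d' h1 h2 h3 h4 h5 h6 k1 k2 k3 k4 k5 k6
    obtain ⟨g, hg⟩ := MulAction.exists_smul_eq G (quad a b c d h1 h2 h3 h4 h5 h6)
      (quad a' b' c' d' k1 k2 k3 k4 k5 k6)
    refine ⟨g, ?_, ?_, ?_, ?_⟩
    · exact congrArg (fun e : Fin 4 ↪ Ω => e 0) hg
    · exact congrArg (fun e : Fin 4 ↪ Ω => e 1) hg
    · exact congrArg (fun e : Fin 4 ↪ Ω => e 2) hg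
    · exact congrArg (fun e : Fin 4 ↪ Ω => e 3) hg
  obtain ⟨e⟩ := hne
  obtain ⟨a, b, c, d, hab, hac, had, hbc, hbd, hcd⟩ :
      ∃ a b c d : Ω, a ≠ b ∧ a ≠ c ∧ a ≠ d ∧ b ≠ c ∧ b ≠ d ∧ c ≠ d :=
    ⟨e 0, e 1, e 2, e 3, by simp, by simp, by simp, by simp, by simp, by simp⟩
  obtain ⟨t, hta, htb, htc, htd⟩ := exists_map a b c d b a c d hab hac had hbc hbd hcd
    hab.symm hbc hbd hac had hcd
  have ht2 : ∀ x : Ω, t • t • x = x := by
    intro x
    have : t * t = 1 := eq_one (t * t) a b c d hab hac had hbc hbd hcd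
      (by rw [mul_smul, hta, htb]) (by rw [mul_smul, htb, hta])
      (by rw [mul_smul, htc, htc]) (by rw [mul_smul, htd, htd])
    rw [← mul_smul, this, one_smul]
  -- the fixed points
  set F := {x : Ω | t • x = x} with hF
  have ht1 : t ≠ 1 := fun h => hab (by rw [← one_smul G a, ← h, hta])
  have hF3 : ∀ e ∈ F, ∀ e' ∈ F, e ≠ c → e ≠ d → e' ≠ c → e' ≠ d → e = e' := by
    intro e he e' he' h1 h2 h3 h4
    by_contra hne'
    exact ht1 (eq_one t c d e e' hcd h1.symm h3.symm h2.symm h4.symm hne' htc htd he he')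
  -- the other moved points
  let Y := {y : Ω // t • y ≠ y ∧ y ≠ a ∧ y ≠ b}
  have hYa : ∀ y : Y, t • (y : Ω) ≠ a ∧ t • (y : Ω) ≠ b := fun y =>
    ⟨fun h => y.2.2.2 (by rw [← ht2 y, h, hta]), fun h => y.2.2.1 (by rw [← ht2 y, h, htb])⟩
  let T := {p : F × F // p.1 ≠ p.2}
  have hcF : c ∈ F := htc
  have hdF : d ∈ F := htd
  obtain ⟨φ, hφ⟩ : ∃ φ : Y → T, Function.Injective φ := by
    by_cases hY : IsEmpty Y
    · exact ⟨fun y => (hY.false y).elim, fun y => (hY.false y).elim⟩
    obtain ⟨y₀⟩ := not_isEmpty_iff.1 hY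
    have hg : ∀ y : Y, ∃ g : G, g • a = a ∧ g • b = b ∧ g • (y₀ : Ω) = y ∧
        (∀ x : Ω, g • t • x = t • g • x) := by
      intro y
      obtain ⟨g, ga, gb, gy, gty⟩ := exists_map a b y₀ (t • (y₀ : Ω)) a b y (t • (y : Ω))
        hab y₀.2.2.1.symm (hYa y₀).1.symm y₀.2.2.2.symm (hYa y₀).2.symm y₀.2.1.symm
        hab y.2.2.1.symm (hYa y).1.symm y.2.2.2.symm (hYa y).2.symm y.2.1.symm
      refine ⟨g, ga, gb, gy, fun x => ?_⟩
      have hinv : ∀ {u v : Ω}, g • u = v → g⁻¹ • v = u := fun h => by rw [← h, inv_smul_smul]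
      have hti : ∀ {u v : Ω}, t • u = v → t⁻¹ • v = u := fun h => by rw [← h, inv_smul_smul]
      have : t⁻¹ * (g⁻¹ * (t * g)) = 1 :=
        eq_one _ a b y₀ (t • (y₀ : Ω)) hab y₀.2.2.1.symm (hYa y₀).1.symm y₀.2.2.2.symm
          (hYa y₀).2.symm y₀.2.1.symm
          (by rw [mul_smul, mul_smul, mul_smul, ga, hta, hinv gb]; exact hti hta)
          (by rw [mul_smul, mul_smul, mul_smul, gb, htb, hinv ga]; exact hti htb)
          (by rw [mul_smul, mul_smul, mul_smul, gy, hinv gty]; exact hti rfl)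
          (by rw [mul_smul, mul_smul, mul_smul, gty, ht2, hinv gy]; exact hti (ht2 _))
      have heq : g * t = t * g := by
        calc g * t = g * t * (t⁻¹ * (g⁻¹ * (t * g))) := by rw [this, mul_one]
          _ = t * g := by group
      rw [← mul_smul, ← mul_smul, heq]
    choose g ga gb gy gcomm using hg
    have hFg : ∀ (y : Y) (x : Ω), x ∈ F → g y • x ∈ F := fun y x hx => by
      change t • g y • x = g y • x
      rw [← gcomm, hx]
    refine ⟨fun y => ⟨(⟨g y • c, hFg y c hcF⟩, ⟨g y • d, hFg y d hdF⟩),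
      fun h => hcd (MulAction.injective (g y) (congrArg Subtype.val h))⟩, ?_⟩
    intro y y' h
    have h1 : g y • c = g y' • c := congrArg (fun p : T => (p.1.1 : Ω)) h
    have h2 : g y • d = g y' • d := congrArg (fun p : T => (p.1.2 : Ω)) h
    have h3 : (g y)⁻¹ * g y' = 1 := eq_one _ a b c d hab hac had hbc hbd hcd
      (by rw [mul_smul, ga, ← eq_inv_smul_iff.2 (ga y)])
      (by rw [mul_smul, gb, ← eq_inv_smul_iff.2 (gb y)])
      (by rw [mul_smul, ← h1, inv_smul_smul])
      (by rw [mul_smul, ← h2, inv_smul_smul])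
    exact Subtype.ext (by rw [← gy y, ← gy y', inv_mul_eq_one.1 h3])
  -- `F` is finite
  haveI hFfin : Finite F := by
    by_cases hex : ∃ e ∈ F, e ≠ c ∧ e ≠ d
    · obtain ⟨e, he, hec, hed⟩ := hex
      refine (Set.Finite.subset (Set.toFinite ({c, d, e} : Set Ω)) fun x hx => ?_).to_subtype
      by_cases hxc : x = c
      · exact Or.inl hxc
      by_cases hxd : x = d
      · exact Or.inr (Or.inl hxd)
      exact Or.inr (Or.inr (hF3 x hx e he hxc hxd hec hed))
    · push Not at hex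
      refine (Set.Finite.subset (Set.toFinite ({c, d} : Set Ω)) fun x hx => ?_).to_subtype
      by_cases hxc : x = c
      · exact Or.inl hxc
      exact Or.inr (hex x hx hxc)
  haveI : Finite T := Subtype.finite
  haveI : Finite Y := Finite.of_injective φ hφ
  haveI hΩ : Finite Ω := by
    refine Finite.of_surjective (fun s : F ⊕ (Y ⊕ Bool) =>
      Sum.elim (fun x : F => (x : Ω)) (Sum.elim (fun y : Y => (y : Ω)) (fun i => cond i a b)) s) fun x => ?_
    by_cases hxF : t • x = x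
    · exact ⟨Sum.inl ⟨x, hxF⟩, rfl⟩
    by_cases hxa : x = a
    · exact ⟨Sum.inr (Sum.inr true), hxa.symm⟩
    by_cases hxb : x = b
    · exact ⟨Sum.inr (Sum.inr false), hxb.symm⟩
    exact ⟨Sum.inr (Sum.inl ⟨x, hxF, hxa, hxb⟩), rfl⟩
  letI := Fintype.ofFinite Ω
  refine ⟨hΩ, ?_⟩
  -- counting
  set s := Nat.card F with hs
  have hcard : Nat.card Ω ≤ s + (Nat.card T + 2) := by
    have hsur : Function.Surjective (fun u : F ⊕ (Y ⊕ Bool) =>
        Sum.elim (fun x : F => (x : Ω)) (Sum.elim (fun y : Y => (y : Ω)) (fun i => cond i a b)) u) := by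
      intro x
      by_cases hxF : t • x = x
      · exact ⟨Sum.inl ⟨x, hxF⟩, rfl⟩
      by_cases hxa : x = a
      · exact ⟨Sum.inr (Sum.inr true), hxa.symm⟩
      by_cases hxb : x = b
      · exact ⟨Sum.inr (Sum.inr false), hxb.symm⟩
      exact ⟨Sum.inr (Sum.inl ⟨x, hxF, hxa, hxb⟩), rfl⟩
    refine (Nat.card_le_card_of_surjective _ hsur).trans ?_
    rw [Nat.card_sum, Nat.card_sum, Nat.card_eq_fintype_card (α := Bool), Fintype.card_bool]
    have := Nat.card_le_card_of_injective φ hφ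
    omega
  have hT : Nat.card T ≤ s * (s - 1) := by
    letI := Fintype.ofFinite F
    rw [hs, Nat.card_eq_fintype_card, Nat.card_eq_fintype_card]
    refine le_of_le_of_eq (Fintype.card_le_of_injective
      (fun p : T => (⟨p.1.1, ⟨p.1.2, Ne.symm p.2⟩⟩ : Σ x : F, {z : F // z ≠ x})) ?_) ?_
    · rintro ⟨⟨p1, p2⟩, hp⟩ ⟨⟨q1, q2⟩, hq⟩ h
      simp only [Sigma.mk.injEq] at h
      obtain ⟨rfl, h2⟩ := h
      have h3 := congrArg Subtype.val (eq_of_heq h2)
      simp only at h3
      subst h3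
      rfl
    · simp [Fintype.card_subtype_compl]
  have hs3 : s ≤ 3 := by
    by_contra hgt
    obtain ⟨S, hS⟩ : ∃ S : Finset F, S.card = 4 := by
      letI := Fintype.ofFinite F
      obtain ⟨S, -, hS⟩ := Finset.exists_subset_card_eq (s := (Finset.univ : Finset F)) (n := 4)
        (by rw [Finset.card_univ, ← Nat.card_eq_fintype_card]; omega)
      exact ⟨S, hS⟩
    have h2 : ((S.erase ⟨c, hcF⟩).erase ⟨d, hdF⟩).card ≥ 2 := by
      have h3 : (S.erase ⟨c, hcF⟩).card ≥ 3 := by
        have := Finset.pred_card_le_card_erase (a := (⟨c, hcF⟩ : F)) (s := S)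
        omega
      have := Finset.pred_card_le_card_erase (a := (⟨d, hdF⟩ : F)) (s := S.erase ⟨c, hcF⟩)
      omega
    obtain ⟨u, hu, v, hv, huv⟩ := Finset.one_lt_card.1 h2
    simp only [Finset.mem_erase, ne_eq] at hu hv
    exact huv (Subtype.ext (hF3 u u.2 v v.2 (fun h => hu.2.1 (Subtype.ext h))
      (fun h => hu.1 (Subtype.ext h)) (fun h => hv.2.1 (Subtype.ext h))
      (fun h => hv.1 (Subtype.ext h))))
  have hs2 : 2 ≤ s := by
    refine le_trans (le_of_eq ?_) (Nat.card_le_card_of_injective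
      (fun i : Bool => (cond i ⟨c, hcF⟩ ⟨d, hdF⟩ : F)) ?_)
    · simp
    · intro i j h
      have h' := congrArg Subtype.val h
      cases i <;> cases j
      · rfl
      · exact absurd h' hcd.symm
      · exact absurd h' hcd
      · rfl
  have hparity : Nat.card Ω % 2 = s % 2 := by
    let f : Function.End Ω := fun x => t • x
    have hf : f ^ 2 ^ 1 = 1 := by
      funext x
      change t • t • x = x
      exact ht2 x
    have := Equiv.Perm.card_fixedPoints_modEq (p := 2) (n := 1) hf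
    have hfs : Fintype.card (Function.fixedPoints f) = s := by
      rw [hs, ← Nat.card_eq_fintype_card]
      rfl
    rw [hfs, ← Nat.card_eq_fintype_card] at this
    exact this
  rcases (show s = 2 ∨ s = 3 by omega) with h | h
  · rw [h] at hcard hT
    exact ⟨by omega, fun _ => by omega⟩
  · rw [h] at hcard hT hparity
    refine ⟨by omega, fun hev => ?_⟩
    rw [Nat.even_iff] at hev
    omega

end CfsgLib.SharplyFour
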